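import Mathlib
import Cfsg.Prelude.Def_RootSubgroups

/-!
Linear Baer-Suzuki, part one: descending chains of subspaces, the groups acting trivially on their
factors, nil sets of linear automorphisms.
-/

set_option autoImplicit false

namespace Cfsg.Agent.Lib.LinBS

variable {k : Type*} [Field k] {M : Type*} [AddCommGroup M] [Module k M]

/-- A finite descending chain from the whole space down to zero. -/
structure Flag (F : ℕ → Submodule k M) (n : ℕ) : Prop where
  top : F 0 = ⊤
  bot : F n = ⊥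
  anti : ∀ i, F (i + 1) ≤ F i

theorem Flag.mono {F : ℕ → Submodule k M} {n : ℕ} (hF : Flag F n) {i j : ℕ} (h : i ≤ j) : F j ≤ F i := by
  induction j, h using Nat.le_induction with
  | base => exact le_refl _
  | succ j _ ih => exact (hF.anti j).trans ih

theorem Flag.eq_bot {F : ℕ → Submodule k M} {n : ℕ} (hF : Flag F n) {i : ℕ} (h : n ≤ i) : F i = ⊥ :=
  le_bot_iff.1 (by rw [← hF.bot]; exact hF.mono h)

/-- The elements moving `F i` into `F (i + j)` by `g - 1`. -/
def Fil (F : ℕ → Submodule k M) (j : ℕ) : Set (LinearMap.GeneralLinearGroup k M) :=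
  {g | ∀ i, ∀ m ∈ F i, (g : M →ₗ[k] M) m - m ∈ F (i + j)}

theorem app_mul (g h : LinearMap.GeneralLinearGroup k M) (m : M) :
    ((g * h : LinearMap.GeneralLinearGroup k M) : M →ₗ[k] M) m = (g : M →ₗ[k] M) ((h : M →ₗ[k] M) m) := rfl

theorem app_one (m : M) : ((1 : LinearMap.GeneralLinearGroup k M) : M →ₗ[k] M) m = m := rfl

theorem app_inv_app (g : LinearMap.GeneralLinearGroup k M) (m : M) :
    (g : M →ₗ[k] M) (((g⁻¹ : LinearMap.GeneralLinearGroup k M) : M →ₗ[k] M) m) = m := by
  rw [← app_mul, mul_inv_cancel, app_one]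

theorem inv_app_app (g : LinearMap.GeneralLinearGroup k M) (m : M) :
    ((g⁻¹ : LinearMap.GeneralLinearGroup k M) : M →ₗ[k] M) ((g : M →ₗ[k] M) m) = m := by
  rw [← app_mul, inv_mul_cancel, app_one]

variable {F : ℕ → Submodule k M} {n : ℕ}

theorem Fil_mono (hF : Flag F n) {j j' : ℕ} (h : j ≤ j') : Fil F j' ⊆ Fil F j := by
  intro g hg i m hm
  exact hF.mono (by omega) (hg i m hm)

theorem stable (hF : Flag F n) {j : ℕ} {g : LinearMap.GeneralLinearGroup k M} (hg : g ∈ Fil F j) {i : ℕ} {m : M}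
    (hm : m ∈ F i) : (g : M →ₗ[k] M) m ∈ F i := by
  have h1 := hF.mono (Nat.le_add_right i j) (hg i m hm)
  have h2 := (F i).add_mem h1 hm
  simpa using h2

theorem one_mem_Fil (j : ℕ) : (1 : LinearMap.GeneralLinearGroup k M) ∈ Fil F j := by
  intro i m _
  simp [app_one]

theorem mul_mem_Fil (hF : Flag F n) {j : ℕ} {g h : LinearMap.GeneralLinearGroup k M} (hg : g ∈ Fil F j)
    (hh : h ∈ Fil F j) : g * h ∈ Fil F j := by
  intro i m hm
  have h1 := hg i _ (stable hF hh hm)
  have h2 := hh i m hm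
  have h3 := (F (i + j)).add_mem h1 h2
  rw [app_mul]
  simpa using h3

theorem inv_stable (hF : Flag F n) {j : ℕ} (hj : 1 ≤ j) {g : LinearMap.GeneralLinearGroup k M} (hg : g ∈ Fil F j) :
    ∀ d i, n ≤ i + d → ∀ m ∈ F i, ((g⁻¹ : LinearMap.GeneralLinearGroup k M) : M →ₗ[k] M) m ∈ F i := by
  intro d
  induction d with
  | zero =>
    intro i hi m hm
    rw [hF.eq_bot (by omega)] at hm ⊢
    rw [Submodule.mem_bot] at hm
    subst hm
    simp
  | succ d ih =>
    intro i hi m hm
    have h1 : (g : M →ₗ[k] M) m - m ∈ F (i + 1) := hF.mono (by omega) (hg i m hm)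
    have h2 := ih (i + 1) (by omega) _ h1
    have h3 : ((g⁻¹ : LinearMap.GeneralLinearGroup k M) : M →ₗ[k] M) m =
        m - ((g⁻¹ : LinearMap.GeneralLinearGroup k M) : M →ₗ[k] M) ((g : M →ₗ[k] M) m - m) := by
      rw [map_sub, inv_app_app]
      abel
    rw [h3]
    exact (F i).sub_mem hm (hF.anti i h2)

theorem inv_mem_Fil (hF : Flag F n) {j : ℕ} (hj : 1 ≤ j) {g : LinearMap.GeneralLinearGroup k M} (hg : g ∈ Fil F j) :
    g⁻¹ ∈ Fil F j := by
  intro i m hm
  have h1 := hg i m hm
  have h2 := inv_stable hF hj hg n (i + j) (by omega) _ h1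
  have h3 : ((g⁻¹ : LinearMap.GeneralLinearGroup k M) : M →ₗ[k] M) m - m =
      - ((g⁻¹ : LinearMap.GeneralLinearGroup k M) : M →ₗ[k] M) ((g : M →ₗ[k] M) m - m) := by
    rw [map_sub, inv_app_app]
    abel
  rw [h3]
  exact (F (i + j)).neg_mem h2

/-- The commutator rule for the filtration. -/
theorem comm_mem_Fil (hF : Flag F n) {j : ℕ} (hj : 1 ≤ j) {y e : LinearMap.GeneralLinearGroup k M} (hy : y ∈ Fil F j)
    (he : e ∈ Fil F 1) : y * e * y⁻¹ * e⁻¹ ∈ Fil F (j + 1) := by
  intro i m hm
  set w := ((y⁻¹ : LinearMap.GeneralLinearGroup k M) : M →ₗ[k] M)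
    (((e⁻¹ : LinearMap.GeneralLinearGroup k M) : M →ₗ[k] M) m) with hw
  have hw1 : w ∈ F i := stable hF (inv_mem_Fil hF hj hy) (stable hF (inv_mem_Fil hF le_rfl he) hm)
  have e1 : ((y * e * y⁻¹ * e⁻¹ : LinearMap.GeneralLinearGroup k M) : M →ₗ[k] M) m =
      (y : M →ₗ[k] M) ((e : M →ₗ[k] M) w) := rfl
  have e2 : m = (e : M →ₗ[k] M) ((y : M →ₗ[k] M) w) := by
    rw [hw, app_inv_app, app_inv_app]
  have e3 : (y : M →ₗ[k] M) ((e : M →ₗ[k] M) w) - (e : M →ₗ[k] M) ((y : M →ₗ[k] M) w) =
      ((y : M →ₗ[k] M) ((e : M →ₗ[k] M) w - w) - ((e : M →ₗ[k] M) w - w)) -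
        ((e : M →ₗ[k] M) ((y : M →ₗ[k] M) w - w) - ((y : M →ₗ[k] M) w - w)) := by
    simp only [map_sub]
    abel
  have e6 : (y : M →ₗ[k] M) ((e : M →ₗ[k] M) w) - m =
      (y : M →ₗ[k] M) ((e : M →ₗ[k] M) w) - (e : M →ₗ[k] M) ((y : M →ₗ[k] M) w) := by
    rw [← e2]
  rw [e1, e6, e3]
  have h1 : (e : M →ₗ[k] M) w - w ∈ F (i + 1) := he i w hw1
  have h2 := hy (i + 1) _ h1
  have h3 : (y : M →ₗ[k] M) w - w ∈ F (i + j) := hy i w hw1
  have h4 := he (i + j) _ h3
  have e4 : i + (j + 1) = i + 1 + j := by omega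
  rw [e4]
  refine (F (i + 1 + j)).sub_mem h2 ?_
  have e5 : i + 1 + j = i + j + 1 := by omega
  rw [e5]
  exact h4

theorem eq_one_of_mem_Fil (hF : Flag F n) {g : LinearMap.GeneralLinearGroup k M} (hg : g ∈ Fil F n) : g = 1 := by
  apply Units.ext
  apply LinearMap.ext
  intro m
  have h1 := hg 0 m (by rw [hF.top]; trivial)
  rw [zero_add, hF.bot, Submodule.mem_bot, sub_eq_zero] at h1
  exact h1

/-- Normalizer condition for subgroups of the group attached to a chain. -/
theorem exists_normalizing (hF : Flag F n) {U E : Subgroup (LinearMap.GeneralLinearGroup k M)}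
    (hU : ∀ g ∈ U, g ∈ Fil F 1) (hE : E ≤ U) (hne : E ≠ U) :
    ∃ y ∈ U, y ∉ E ∧ ∀ e ∈ E, y * e * y⁻¹ ∈ E ∧ y⁻¹ * e * y ∈ E := by
  let Q : ℕ → Prop := fun j => ∀ g ∈ U, g ∈ Fil F j → g ∈ E
  have hQ1 : ¬ Q 1 := by
    intro h
    apply hne
    apply le_antisymm hE
    intro g hg
    exact h g hg (hU g hg)
  have hQn : Q (1 + n) := by
    intro g _ hg
    rw [eq_one_of_mem_Fil hF (Fil_mono hF (by omega) hg)]
    exact E.one_mem
  have key : ∀ d, Q (1 + d) → ∃ j, 1 ≤ j ∧ ¬ Q j ∧ Q (j + 1) := by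
    intro d
    induction d with
    | zero => intro h; exact absurd h hQ1
    | succ d ih =>
      intro h
      by_cases h2 : Q (1 + d)
      · exact ih h2
      · exact ⟨1 + d, by omega, h2, h⟩
  obtain ⟨j, hj, hnQ, hQ⟩ := key n hQn
  simp only [Q] at hnQ
  push Not at hnQ
  obtain ⟨y, hyU, hyF, hyE⟩ := hnQ
  refine ⟨y, hyU, hyE, fun e he => ?_⟩
  have heU := hE he
  have h1 : y * e * y⁻¹ * e⁻¹ ∈ E := by
    apply hQ
    · exact U.mul_mem (U.mul_mem (U.mul_mem hyU heU) (U.inv_mem hyU)) (U.inv_mem heU)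
    · exact comm_mem_Fil hF hj hyF (hU e heU)
  have h2 : y⁻¹ * e * y * e⁻¹ ∈ E := by
    apply hQ
    · exact U.mul_mem (U.mul_mem (U.mul_mem (U.inv_mem hyU) heU) hyU) (U.inv_mem heU)
    · have := comm_mem_Fil hF hj (inv_mem_Fil hF hj hyF) (hU e heU)
      rwa [inv_inv] at this
  constructor
  · have := E.mul_mem h1 he
    simpa using this
  · have := E.mul_mem h2 he
    simpa using this

/-- A set of automorphisms is nil: products of `n` elements `g - 1` vanish. -/
def Nil (S : Set (LinearMap.GeneralLinearGroup k M)) : Prop :=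
  ∃ n : ℕ, ∀ l : List (LinearMap.GeneralLinearGroup k M), (∀ g ∈ l, g ∈ S) → l.length = n →
    (l.map fun g : LinearMap.GeneralLinearGroup k M => (g : M →ₗ[k] M) - 1).prod = 0

theorem Nil.mono {S T : Set (LinearMap.GeneralLinearGroup k M)} (h : Nil T) (hST : S ⊆ T) : Nil S := by
  obtain ⟨n, hn⟩ := h
  exact ⟨n, fun l hl => hn l (fun g hg => hST (hl g hg))⟩

/-- The descending chain of a set. -/
noncomputable def chain (S : Set (LinearMap.GeneralLinearGroup k M)) : ℕ → Submodule k M
  | 0 => ⊤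
  | i + 1 => ⨆ g ∈ S, (chain S i).map ((g : M →ₗ[k] M) - 1)

theorem chain_succ (S : Set (LinearMap.GeneralLinearGroup k M)) (i : ℕ) :
    chain S (i + 1) = ⨆ g ∈ S, (chain S i).map ((g : M →ₗ[k] M) - 1) := rfl

theorem chain_anti (S : Set (LinearMap.GeneralLinearGroup k M)) (i : ℕ) : chain S (i + 1) ≤ chain S i := by
  induction i with
  | zero => exact le_top
  | succ i ih =>
    rw [chain_succ S (i + 1), chain_succ S i]
    exact iSup₂_mono (fun g _ => Submodule.map_mono ih)

theorem mem_Fil_chain {S : Set (LinearMap.GeneralLinearGroup k M)} {g : LinearMap.GeneralLinearGroup k M} (hg : g ∈ S) :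
    g ∈ Fil (chain S) 1 := by
  intro i m hm
  rw [chain_succ]
  refine Submodule.mem_iSup_of_mem g (Submodule.mem_iSup_of_mem hg ?_)
  exact ⟨m, hm, rfl⟩

theorem chain_bot_of_nil {S : Set (LinearMap.GeneralLinearGroup k M)} {n : ℕ}
    (h : ∀ l : List (LinearMap.GeneralLinearGroup k M), (∀ g ∈ l, g ∈ S) → l.length = n →
      (l.map fun g : LinearMap.GeneralLinearGroup k M => (g : M →ₗ[k] M) - 1).prod = 0) : chain S n = ⊥ := by
  have key : ∀ i j, j + i = n → ∀ v ∈ chain S i, ∀ l : List (LinearMap.GeneralLinearGroup k M),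
      (∀ g ∈ l, g ∈ S) → l.length = j → (l.map fun g : LinearMap.GeneralLinearGroup k M => (g : M →ₗ[k] M) - 1).prod v = 0 := by
    intro i
    induction i with
    | zero =>
      intro j hj v _ l hl hlen
      rw [h l hl (by omega)]
      rfl
    | succ i ih =>
      intro j hj v hv l hl hlen
      rw [chain_succ] at hv
      induction hv using Submodule.iSup_induction' with
      | mem g w hw =>
        induction hw using Submodule.iSup_induction' with
        | mem hgS w hw =>
          obtain ⟨u, hu, rfl⟩ := hw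
          have h1 := ih (j + 1) (by omega) u hu (l ++ [g]) (by
            intro x hx
            rw [List.mem_append] at hx
            rcases hx with hx | hx
            · exact hl x hx
            · rw [List.mem_singleton] at hx
              rw [hx]
              exact hgS) (by simp [hlen])
          rw [List.map_append, List.prod_append] at h1
          simpa using h1
        | zero => simp
        | add x y _ _ hx hy => rw [map_add, hx, hy, add_zero]
      | zero => simp
      | add x y _ _ hx hy => rw [map_add, hx, hy, add_zero]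
  rw [eq_bot_iff]
  intro v hv
  have := key n 0 (by omega) v hv [] (by simp) rfl
  simpa using this

theorem flag_chain {S : Set (LinearMap.GeneralLinearGroup k M)} {n : ℕ}
    (h : ∀ l : List (LinearMap.GeneralLinearGroup k M), (∀ g ∈ l, g ∈ S) → l.length = n →
      (l.map fun g : LinearMap.GeneralLinearGroup k M => (g : M →ₗ[k] M) - 1).prod = 0) : Flag (chain S) n :=
  ⟨rfl, chain_bot_of_nil h, chain_anti S⟩

theorem nil_of_subset_Fil (hF : Flag F n) {T : Set (LinearMap.GeneralLinearGroup k M)} (hT : T ⊆ Fil F 1) : Nil T := by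
  refine ⟨n, fun l hl hlen => ?_⟩
  have key : ∀ l : List (LinearMap.GeneralLinearGroup k M), (∀ g ∈ l, g ∈ T) → ∀ m : M,
      (l.map fun g : LinearMap.GeneralLinearGroup k M => (g : M →ₗ[k] M) - 1).prod m ∈ F l.length := by
    intro l
    induction l with
    | nil =>
      intro _ m
      rw [List.length_nil, hF.top]
      trivial
    | cons g l ih =>
      intro hl m
      have h1 := ih (fun x hx => hl x (List.mem_cons_of_mem _ hx)) m
      have h2 := hT (hl g (List.mem_cons_self)) _ _ h1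
      simpa using h2
  apply LinearMap.ext
  intro m
  have h1 := key l hl m
  rw [hlen, hF.bot, Submodule.mem_bot] at h1
  simpa using h1

/-- The group generated by a nil set lies in the group of the chain. -/
theorem closure_subset_Fil {S : Set (LinearMap.GeneralLinearGroup k M)} (hF : Flag F n) (hS : S ⊆ Fil F 1) {g : LinearMap.GeneralLinearGroup k M}
    (hg : g ∈ Subgroup.closure S) : g ∈ Fil F 1 := by
  induction hg using Subgroup.closure_induction with
  | mem x hx => exact hS hx
  | one => exact one_mem_Fil 1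
  | mul x y _ _ hx hy => exact mul_mem_Fil hF hx hy
  | inv x _ hx => exact inv_mem_Fil hF le_rfl hx

theorem Nil.closure {S : Set (LinearMap.GeneralLinearGroup k M)} (h : Nil S) :
    Nil ((Subgroup.closure S : Subgroup (LinearMap.GeneralLinearGroup k M)) : Set (LinearMap.GeneralLinearGroup k M)) := by
  obtain ⟨n, hn⟩ := h
  have hF := flag_chain hn
  exact nil_of_subset_Fil hF (fun g hg => closure_subset_Fil hF (fun x hx => mem_Fil_chain hx) hg)

end Cfsg.Agent.Lib.LinBS
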