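import Mathlib
import Cfsg.Agent.Lib.LinBS.Fil

/-!
Linear Baer-Suzuki, part two: a `G`-invariant set of automorphisms, any two of which generate a
unipotent group, is nil.
-/

set_option autoImplicit false

namespace Cfsg.Agent.Lib.LinBS

universe u v

variable {k : Type v} [Field k] {M : Type u} [AddCommGroup M] [Module k M]

/-- The linear span of the elements `g - 1`. -/
noncomputable def Sp (S : Set (LinearMap.GeneralLinearGroup k M)) : Submodule k (M →ₗ[k] M) :=
  Submodule.span k ((fun g : LinearMap.GeneralLinearGroup k M => (g : M →ₗ[k] M) - 1) '' S)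

theorem Sp_mono {S T : Set (LinearMap.GeneralLinearGroup k M)} (h : S ⊆ T) : Sp S ≤ Sp T :=
  Submodule.span_mono (Set.image_mono h)

theorem sub_one_mem_Sp {S : Set (LinearMap.GeneralLinearGroup k M)} {g : LinearMap.GeneralLinearGroup k M} (hg : g ∈ S) :
    (g : M →ₗ[k] M) - 1 ∈ Sp S :=
  Submodule.subset_span ⟨g, hg, rfl⟩

/-- The endomorphisms shifting a chain by one. -/
def shift (F : ℕ → Submodule k M) : Submodule k (M →ₗ[k] M) where
  carrier := {f | ∀ i, ∀ m ∈ F i, f m ∈ F (i + 1)}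
  add_mem' := fun ha hb i m hm => (F (i + 1)).add_mem (ha i m hm) (hb i m hm)
  zero_mem' := fun i _ _ => (F (i + 1)).zero_mem
  smul_mem' := fun c _ hx i m hm => (F (i + 1)).smul_mem c (hx i m hm)

theorem mem_Fil_of_mem_Sp {F : ℕ → Submodule k M} {S : Set (LinearMap.GeneralLinearGroup k M)} (hS : S ⊆ Fil F 1)
    {g : LinearMap.GeneralLinearGroup k M} (h : (g : M →ₗ[k] M) - 1 ∈ Sp S) : g ∈ Fil F 1 := by
  have hle : Sp S ≤ shift F := by
    apply Submodule.span_le.2
    rintro _ ⟨x, hx, rfl⟩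
    intro i m hm
    exact hS hx i m hm
  intro i m hm
  exact hle h i m hm

/-- A maximal nil subset of `D`. -/
def MaxNil (D P : Set (LinearMap.GeneralLinearGroup k M)) : Prop :=
  P ⊆ D ∧ Nil P ∧ ∀ Q, Q ⊆ D → Nil Q → P ⊆ Q → Q ⊆ P

theorem exists_maxNil [FiniteDimensional k M] {D A : Set (LinearMap.GeneralLinearGroup k M)} (hAD : A ⊆ D) (hA : Nil A) :
    ∃ P, MaxNil D P ∧ A ⊆ P := by
  classical
  let X : Set ℕ := {d | ∃ B, A ⊆ B ∧ B ⊆ D ∧ Nil B ∧ Module.finrank k (Sp B) = d}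
  have hne : X.Nonempty := ⟨_, A, subset_rfl, hAD, hA, rfl⟩
  have hbd : BddAbove X := ⟨Module.finrank k (M →ₗ[k] M), by
    rintro d ⟨B, _, _, _, rfl⟩
    exact Submodule.finrank_le _⟩
  obtain ⟨B, hAB, hBD, hBn, hd⟩ := Nat.sSup_mem hne hbd
  obtain ⟨n, hn⟩ := hBn
  have hF := flag_chain hn
  refine ⟨D ∩ Fil (chain B) 1, ⟨Set.inter_subset_left, nil_of_subset_Fil hF Set.inter_subset_right, ?_⟩,
    fun g hg => ⟨hBD (hAB hg), mem_Fil_chain (hAB hg)⟩⟩
  intro Q hQD hQn hPQ g hg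
  refine ⟨hQD hg, ?_⟩
  have hBQ : B ⊆ Q := fun x hx => hPQ ⟨hBD hx, mem_Fil_chain hx⟩
  have hle : Sp B ≤ Sp Q := Sp_mono hBQ
  have hfr : Module.finrank k (Sp Q) ≤ Module.finrank k (Sp B) := by
    rw [hd]
    exact le_csSup hbd ⟨Q, hAB.trans hBQ, hQD, hQn, rfl⟩
  have heq := Submodule.eq_of_le_of_finrank_le hle hfr
  have h1 : (g : M →ₗ[k] M) - 1 ∈ Sp B := by
    rw [heq]
    exact sub_one_mem_Sp hg
  exact mem_Fil_of_mem_Sp (fun x hx => mem_Fil_chain hx) h1

theorem MaxNil.mem_of_Fil {D P : Set (LinearMap.GeneralLinearGroup k M)} (hP : MaxNil D P)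
    {y : LinearMap.GeneralLinearGroup k M} (hy : y ∈ D) (hyF : y ∈ Fil (chain P) 1) : y ∈ P := by
  obtain ⟨n, hn⟩ := hP.2.1
  have hF := flag_chain hn
  have h1 : Nil (P ∪ {y}) := by
    apply nil_of_subset_Fil hF
    rintro x (hx | hx)
    · exact mem_Fil_chain hx
    · rw [Set.mem_singleton_iff] at hx
      rw [hx]
      exact hyF
  exact hP.2.2 (P ∪ {y}) (Set.union_subset hP.1 (Set.singleton_subset_iff.2 hy)) h1 Set.subset_union_left (Or.inr rfl)

theorem MaxNil.mem_of_Sp {D P : Set (LinearMap.GeneralLinearGroup k M)} (hP : MaxNil D P)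
    {y : LinearMap.GeneralLinearGroup k M} (hy : y ∈ D) (hS : (y : M →ₗ[k] M) - 1 ∈ Sp P) : y ∈ P :=
  hP.mem_of_Fil hy (mem_Fil_of_mem_Sp (fun x hx => mem_Fil_chain hx) hS)

theorem MaxNil.conj_mem {G : Subgroup (LinearMap.GeneralLinearGroup k M)} {D P : Set (LinearMap.GeneralLinearGroup k M)}
    (hP : MaxNil D P) (hDG : ∀ x ∈ D, x ∈ G) (hinv : ∀ x ∈ D, ∀ g ∈ G, g * x * g⁻¹ ∈ D)
    {u y : LinearMap.GeneralLinearGroup k M} (hu : u ∈ Subgroup.closure P) (hy : y ∈ P) : u * y * u⁻¹ ∈ P := by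
  obtain ⟨n, hn⟩ := hP.2.1
  have hF := flag_chain hn
  have huG : u ∈ G := (Subgroup.closure_le G).2 (fun x hx => hDG x (hP.1 hx)) hu
  apply hP.mem_of_Fil (hinv y (hP.1 hy) u huG)
  have huF := closure_subset_Fil hF (fun x hx => mem_Fil_chain hx) hu
  exact mul_mem_Fil hF (mul_mem_Fil hF huF (mem_Fil_chain hy)) (inv_mem_Fil hF le_rfl huF)

/-- The member of `P` outside `Q` normalizing the group generated by `P ∩ Q`. -/
theorem exists_normalizing_member {G : Subgroup (LinearMap.GeneralLinearGroup k M)}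
    {D P Q : Set (LinearMap.GeneralLinearGroup k M)} (hDG : ∀ x ∈ D, x ∈ G) (hinv : ∀ x ∈ D, ∀ g ∈ G, g * x * g⁻¹ ∈ D)
    (hP : MaxNil D P) (hQ : MaxNil D Q) (hne : P ≠ Q) :
    ∃ y ∈ P, y ∉ Q ∧ y ∈ Subgroup.normalizer ((Subgroup.closure (P ∩ Q) : Subgroup (LinearMap.GeneralLinearGroup k M)) :
      Set (LinearMap.GeneralLinearGroup k M)) := by
  by_contra hcon
  push Not at hcon
  set E := Subgroup.closure (P ∩ Q) with hE
  set N := Subgroup.normalizer ((E : Subgroup (LinearMap.GeneralLinearGroup k M)) : Set (LinearMap.GeneralLinearGroup k M)) with hN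
  have h1 : ∀ y ∈ P, y ∈ N → y ∈ Q := by
    intro y hy hyN
    by_contra hyQ
    exact hcon y hy hyQ hyN
  set U := Subgroup.closure P with hU
  by_cases hcase : U ⊓ N = U
  · apply hne
    have hPQ : P ⊆ Q := by
      intro y hy
      have : y ∈ U := Subgroup.subset_closure hy
      rw [← hcase] at this
      exact h1 y hy this.2
    exact Set.Subset.antisymm hPQ (hP.2.2 Q hQ.1 hQ.2.1 hPQ)
  obtain ⟨n, hn⟩ := hP.2.1
  have hF := flag_chain hn
  obtain ⟨t, htU, htE, ht⟩ := exists_normalizing hF (U := U) (E := U ⊓ N)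
    (fun g hg => closure_subset_Fil hF (fun x hx => mem_Fil_chain hx) hg) inf_le_left hcase
  have hzE : ∀ z ∈ P ∩ Q, z ∈ U ⊓ N := fun z hz =>
    ⟨Subgroup.subset_closure hz.1, Subgroup.le_normalizer (Subgroup.subset_closure hz)⟩
  have h2 : ∀ z ∈ P ∩ Q, t * z * t⁻¹ ∈ P ∩ Q := by
    intro z hz
    have h3 := hP.conj_mem hDG hinv htU hz.1
    exact ⟨h3, h1 _ h3 (ht z (hzE z hz)).1.2⟩
  have h4 : ∀ z ∈ P ∩ Q, t⁻¹ * z * t ∈ P ∩ Q := by
    intro z hz
    have h3 := hP.conj_mem hDG hinv (U.inv_mem htU) hz.1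
    rw [inv_inv] at h3
    exact ⟨h3, h1 _ h3 (ht z (hzE z hz)).2.2⟩
  have h5 : E ≤ E.comap (MulAut.conj t).toMonoidHom := by
    rw [hE, Subgroup.closure_le]
    intro z hz
    exact Subgroup.subset_closure (h2 z hz)
  have h6 : E ≤ E.comap (MulAut.conj t⁻¹).toMonoidHom := by
    rw [hE, Subgroup.closure_le]
    intro z hz
    have := h4 z hz
    apply Subgroup.subset_closure
    simpa using this
  have htN : t ∈ N := by
    rw [hN, Subgroup.mem_normalizer_iff]
    intro h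
    constructor
    · intro hh
      exact h5 hh
    · intro hh
      have := h6 hh
      simpa [mul_assoc] using this
  exact htE ⟨htU, htN⟩

/-! ### The fixed space of a normal piece -/

/-- The fixed space of a subgroup. -/
def fixE (E : Subgroup (LinearMap.GeneralLinearGroup k M)) : Submodule k M :=
  ⨅ g ∈ E, LinearMap.ker ((g : M →ₗ[k] M) - 1)

theorem mem_fixE {E : Subgroup (LinearMap.GeneralLinearGroup k M)} {m : M} :
    m ∈ fixE E ↔ ∀ g ∈ E, (g : M →ₗ[k] M) m = m := by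
  simp [fixE, Submodule.mem_iInf, LinearMap.mem_ker, sub_eq_zero]

theorem fixE_stable {E : Subgroup (LinearMap.GeneralLinearGroup k M)} {g : LinearMap.GeneralLinearGroup k M}
    (hg : g ∈ Subgroup.normalizer ((E : Subgroup (LinearMap.GeneralLinearGroup k M)) : Set (LinearMap.GeneralLinearGroup k M))) {m : M} (hm : m ∈ fixE E) :
    (g : M →ₗ[k] M) m ∈ fixE E := by
  rw [mem_fixE] at hm ⊢
  intro e he
  have h1 : g⁻¹ ∈ Subgroup.normalizer ((E : Subgroup (LinearMap.GeneralLinearGroup k M)) : Set (LinearMap.GeneralLinearGroup k M)) := Subgroup.inv_mem _ hg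
  have h2 : g⁻¹ * e * g⁻¹⁻¹ ∈ E := (Subgroup.mem_normalizer_iff.1 h1 e).1 he
  rw [inv_inv] at h2
  have h3 := hm _ h2
  calc (e : M →ₗ[k] M) ((g : M →ₗ[k] M) m)
      = (g : M →ₗ[k] M) (((g⁻¹ * e * g : LinearMap.GeneralLinearGroup k M) : M →ₗ[k] M) m) := by
        have : g * (g⁻¹ * e * g) = e * g := by group
        rw [← app_mul, ← app_mul, this]
    _ = (g : M →ₗ[k] M) m := by rw [h3]

theorem fixE_ne_top {E : Subgroup (LinearMap.GeneralLinearGroup k M)} {t : LinearMap.GeneralLinearGroup k M} (ht : t ∈ E) (ht1 : t ≠ 1) :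
    fixE E ≠ ⊤ := by
  intro h
  apply ht1
  apply Units.ext
  apply LinearMap.ext
  intro m
  have h1 : m ∈ fixE E := by rw [h]; trivial
  exact mem_fixE.1 h1 t ht

theorem fixE_ne_bot {E : Subgroup (LinearMap.GeneralLinearGroup k M)} {t : LinearMap.GeneralLinearGroup k M} (ht : t ∈ E) (ht1 : t ≠ 1)
    (hE : Nil ((E : Subgroup (LinearMap.GeneralLinearGroup k M)) : Set (LinearMap.GeneralLinearGroup k M))) : fixE E ≠ ⊥ := by
  obtain ⟨n, hn⟩ := hE
  have hF := flag_chain hn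
  have hex : ∃ i, chain (E : Set (LinearMap.GeneralLinearGroup k M)) i = ⊥ := ⟨n, hF.bot⟩
  classical
  have hspec := Nat.find_spec hex
  have hmin := fun j => Nat.find_min hex (m := j)
  set i := Nat.find hex with hi
  have hi0 : i ≠ 0 := by
    intro h0
    rw [h0] at hspec
    have h1 : (⊤ : Submodule k M) = ⊥ := hspec
    apply ht1
    apply Units.ext
    apply LinearMap.ext
    intro m
    have : m ∈ (⊥ : Submodule k M) := by rw [← h1]; trivial
    rw [Submodule.mem_bot] at this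
    rw [this]
    simp
  obtain ⟨j, hj⟩ : ∃ j, i = j + 1 := ⟨i - 1, by omega⟩
  have hnb : chain (E : Set (LinearMap.GeneralLinearGroup k M)) j ≠ ⊥ := hmin j (by omega)
  obtain ⟨v, hv, hv0⟩ := Submodule.exists_mem_ne_zero_of_ne_bot hnb
  intro hbot
  apply hv0
  have : v ∈ fixE E := by
    rw [mem_fixE]
    intro g hg
    have h1 := mem_Fil_chain (S := (E : Set (LinearMap.GeneralLinearGroup k M))) hg j v hv
    rw [← hj, hspec, Submodule.mem_bot, sub_eq_zero] at h1
    exact h1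
  rw [hbot, Submodule.mem_bot] at this
  exact this

section Reduction

variable {E : Subgroup (LinearMap.GeneralLinearGroup k M)} {G : Subgroup (LinearMap.GeneralLinearGroup k M)}

/-- The normalizer inside `G`. -/
abbrev N₀ (G E : Subgroup (LinearMap.GeneralLinearGroup k M)) : Subgroup (LinearMap.GeneralLinearGroup k M) :=
  G ⊓ Subgroup.normalizer ((E : Subgroup (LinearMap.GeneralLinearGroup k M)) : Set (LinearMap.GeneralLinearGroup k M))

/-- Action on the fixed space. -/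
def phiSub (G E : Subgroup (LinearMap.GeneralLinearGroup k M)) : ↥(N₀ G E) →* (↥(fixE E) →ₗ[k] ↥(fixE E)) where
  toFun x := LinearMap.restrict ((x.1 : LinearMap.GeneralLinearGroup k M) : M →ₗ[k] M) (fun _ hm => fixE_stable x.2.2 hm)
  map_one' := by
    ext m
    rfl
  map_mul' x y := by
    ext m
    rfl

/-- Action on the quotient by the fixed space. -/
def phiQuot (G E : Subgroup (LinearMap.GeneralLinearGroup k M)) : ↥(N₀ G E) →* ((M ⧸ fixE E) →ₗ[k] (M ⧸ fixE E)) where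
  toFun x := Submodule.mapQ _ _ ((x.1 : LinearMap.GeneralLinearGroup k M) : M →ₗ[k] M) (fun _ hm => fixE_stable x.2.2 hm)
  map_one' := by
    ext m
    rfl
  map_mul' x y := by
    ext m
    rfl

theorem phiSub_list (l : List ↥(N₀ G E)) (m : ↥(fixE E)) :
    (((l.map fun x => (((phiSub G E).toHomUnits x : LinearMap.GeneralLinearGroup k ↥(fixE E)) : ↥(fixE E) →ₗ[k] ↥(fixE E)) - 1).prod m : ↥(fixE E)) : M) =
      (l.map fun x => ((x.1 : LinearMap.GeneralLinearGroup k M) : M →ₗ[k] M) - 1).prod (m : M) := by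
  induction l generalizing m with
  | nil => simp
  | cons x l ih =>
    simp only [List.map_cons, List.prod_cons, Module.End.mul_apply]
    rw [← ih m]
    rfl

theorem phiQuot_list (l : List ↥(N₀ G E)) (m : M) :
    (l.map fun x => (((phiQuot G E).toHomUnits x : LinearMap.GeneralLinearGroup k (M ⧸ fixE E)) : (M ⧸ fixE E) →ₗ[k] (M ⧸ fixE E)) - 1).prod
        ((fixE E).mkQ m) =
      (fixE E).mkQ ((l.map fun x => ((x.1 : LinearMap.GeneralLinearGroup k M) : M →ₗ[k] M) - 1).prod m) := by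
  induction l generalizing m with
  | nil => simp
  | cons x l ih =>
    simp only [List.map_cons, List.prod_cons, Module.End.mul_apply]
    rw [ih m]
    rfl

/-- Lifting lists along a map. -/
theorem exists_lift_list {α β : Type*} (φ : α → β) (S : Set α) (l : List β) (h : ∀ b ∈ l, b ∈ φ '' S) :
    ∃ l' : List α, (∀ a ∈ l', a ∈ S) ∧ l'.map φ = l := by
  induction l with
  | nil => exact ⟨[], by simp, rfl⟩
  | cons b l ih =>
    obtain ⟨l', h1, h2⟩ := ih (fun x hx => h x (List.mem_cons_of_mem _ hx))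
    obtain ⟨a, ha, rfl⟩ := h b List.mem_cons_self
    refine ⟨a :: l', ?_, by simp [h2]⟩
    intro x hx
    rcases List.mem_cons.1 hx with rfl | hx
    · exact ha
    · exact h1 x hx

theorem nil_image_sub {S : Set ↥(N₀ G E)} (h : Nil (Subtype.val '' S)) : Nil ((phiSub G E).toHomUnits '' S) := by
  obtain ⟨n, hn⟩ := h
  refine ⟨n, fun l hl hlen => ?_⟩
  obtain ⟨l', h1, rfl⟩ := exists_lift_list _ S l hl
  apply LinearMap.ext
  intro m
  apply Subtype.ext
  rw [List.map_map]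
  have h2 := phiSub_list l' m
  have h3 := hn (l'.map Subtype.val) (by
    intro g hg
    obtain ⟨a, ha, rfl⟩ := List.mem_map.1 hg
    exact ⟨a, h1 a ha, rfl⟩) (by simpa using hlen)
  rw [List.map_map] at h3
  have h4 : (l'.map fun x => ((x.1 : LinearMap.GeneralLinearGroup k M) : M →ₗ[k] M) - 1).prod = 0 := h3
  rw [h4] at h2
  exact h2

theorem nil_image_quot {S : Set ↥(N₀ G E)} (h : Nil (Subtype.val '' S)) : Nil ((phiQuot G E).toHomUnits '' S) := by
  obtain ⟨n, hn⟩ := h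
  refine ⟨n, fun l hl hlen => ?_⟩
  obtain ⟨l', h1, rfl⟩ := exists_lift_list _ S l hl
  apply LinearMap.ext
  intro m
  obtain ⟨m, rfl⟩ := Submodule.mkQ_surjective _ m
  rw [List.map_map]
  have h2 := phiQuot_list l' m
  have h3 := hn (l'.map Subtype.val) (by
    intro g hg
    obtain ⟨a, ha, rfl⟩ := List.mem_map.1 hg
    exact ⟨a, h1 a ha, rfl⟩) (by simpa using hlen)
  rw [List.map_map] at h3
  have h4 : (l'.map fun x => ((x.1 : LinearMap.GeneralLinearGroup k M) : M →ₗ[k] M) - 1).prod = 0 := h3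
  rw [h4] at h2
  exact h2

/-- Gluing nil on the fixed space and on the quotient. -/
theorem nil_of_sub_quot {S : Set ↥(N₀ G E)} (h1 : Nil ((phiSub G E).toHomUnits '' S))
    (h2 : Nil ((phiQuot G E).toHomUnits '' S)) : Nil (Subtype.val '' S) := by
  obtain ⟨a, ha⟩ := h1
  obtain ⟨b, hb⟩ := h2
  refine ⟨a + b, fun l hl hlen => ?_⟩
  obtain ⟨l', h3, rfl⟩ := exists_lift_list _ S l hl
  rw [List.map_map]
  have hlen' : l'.length = a + b := by simpa using hlen
  have e : l' = l'.take a ++ l'.drop a := (List.take_append_drop a l').symm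
  rw [e, List.map_append, List.prod_append]
  apply LinearMap.ext
  intro m
  rw [Module.End.mul_apply]
  -- the second factor lands in the fixed space
  have h4 : ((l'.drop a).map fun x => ((x.1 : LinearMap.GeneralLinearGroup k M) : M →ₗ[k] M) - 1).prod m ∈ fixE E := by
    have h5 := phiQuot_list (l'.drop a) m
    have h6 := hb ((l'.drop a).map (phiQuot G E).toHomUnits) (by
      intro g hg
      obtain ⟨x, hx, rfl⟩ := List.mem_map.1 hg
      exact ⟨x, h3 x (List.mem_of_mem_drop hx), rfl⟩) (by simp [hlen'])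
    rw [List.map_map] at h6
    have h7 : ((l'.drop a).map fun x => (((phiQuot G E).toHomUnits x : LinearMap.GeneralLinearGroup k (M ⧸ fixE E)) : (M ⧸ fixE E) →ₗ[k] (M ⧸ fixE E)) - 1).prod = 0 := h6
    rw [h7] at h5
    have h8 : (fixE E).mkQ (((l'.drop a).map fun x => ((x.1 : LinearMap.GeneralLinearGroup k M) : M →ₗ[k] M) - 1).prod m) = 0 := h5.symm
    rwa [Submodule.mkQ_apply, Submodule.Quotient.mk_eq_zero] at h8
  have h9 := phiSub_list (l'.take a) ⟨_, h4⟩
  have h10 := ha ((l'.take a).map (phiSub G E).toHomUnits) (by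
    intro g hg
    obtain ⟨x, hx, rfl⟩ := List.mem_map.1 hg
    exact ⟨x, h3 x (List.mem_of_mem_take hx), rfl⟩) (by simp [hlen'])
  rw [List.map_map] at h10
  have h11 : ((l'.take a).map fun x => (((phiSub G E).toHomUnits x : LinearMap.GeneralLinearGroup k ↥(fixE E)) : ↥(fixE E) →ₗ[k] ↥(fixE E)) - 1).prod = 0 := h10
  rw [h11] at h9
  simpa using h9.symm

end Reduction

/-- One side of the final contradiction. -/
theorem best_pair_step [FiniteDimensional k M] {G : Subgroup (LinearMap.GeneralLinearGroup k M)}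
    {D P Q T : Set (LinearMap.GeneralLinearGroup k M)} (hDG : ∀ x ∈ D, x ∈ G) (hinv : ∀ x ∈ D, ∀ g ∈ G, g * x * g⁻¹ ∈ D)
    (hP : MaxNil D P) (hQ : MaxNil D Q) (hne : P ≠ Q) {t : LinearMap.GeneralLinearGroup k M} (ht : t ∈ P ∩ Q) (ht1 : t ≠ 1)
    (hbest : ∀ P' Q', MaxNil D P' → MaxNil D Q' → P' ≠ Q' → (∃ t ∈ P' ∩ Q', t ≠ 1) →
      Module.finrank k (Sp (P' ∩ Q')) ≤ Module.finrank k (Sp (P ∩ Q)))
    (hT : MaxNil D T)
    (hNT : D ∩ (N₀ G (Subgroup.closure (P ∩ Q)) : Set (LinearMap.GeneralLinearGroup k M)) ⊆ T) : P = T := by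
  by_contra hPT
  obtain ⟨y, hyP, hyQ, hyN⟩ := exists_normalizing_member hDG hinv hP hQ hne
  have hyT : y ∈ T := hNT ⟨hP.1 hyP, hDG y (hP.1 hyP), hyN⟩
  have hzT : ∀ z ∈ P ∩ Q, z ∈ T := fun z hz =>
    hNT ⟨hP.1 hz.1, hDG z (hP.1 hz.1), Subgroup.le_normalizer (Subgroup.subset_closure hz)⟩
  have hsub : P ∩ Q ⊆ P ∩ T := fun z hz => ⟨hz.1, hzT z hz⟩
  have hlt : Sp (P ∩ Q) < Sp (P ∩ T) := by
    refine lt_of_le_of_ne (Sp_mono hsub) ?_
    intro e
    have h1 : (y : M →ₗ[k] M) - 1 ∈ Sp (P ∩ T) := sub_one_mem_Sp ⟨hyP, hyT⟩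
    rw [← e] at h1
    exact hyQ (hQ.mem_of_Sp (hP.1 hyP) (Sp_mono Set.inter_subset_right h1))
  have h2 := Submodule.finrank_lt_finrank_of_lt hlt
  have h3 := hbest P T hP hT hPT ⟨t, ⟨ht.1, hzT t ht⟩, ht1⟩
  omega

/-- Linear Baer-Suzuki. -/
theorem main (d : ℕ) : ∀ (M : Type u) [AddCommGroup M] [Module k M] [FiniteDimensional k M],
    Module.finrank k M = d → ∀ (G : Subgroup (LinearMap.GeneralLinearGroup k M)) (D : Set (LinearMap.GeneralLinearGroup k M)),
      (∀ x ∈ D, x ∈ G) → (∀ x ∈ D, ∀ g ∈ G, g * x * g⁻¹ ∈ D) →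
      (∀ x ∈ D, ∀ y ∈ D, Nil ({x, y} : Set (LinearMap.GeneralLinearGroup k M))) → Nil D := by
  induction d using Nat.strong_induction_on with
  | _ d ih =>
  intro M _ _ _ hd G D hDG hinv hpair
  by_contra hnil
  -- a pair of maximal nil sets meeting non-trivially
  have hsingle : ∀ x ∈ D, Nil ({x} : Set (LinearMap.GeneralLinearGroup k M)) := by
    intro x hx
    have := hpair x hx x hx
    rwa [Set.pair_eq_singleton] at this
  obtain ⟨y₀, hy₀, hy₀1⟩ : ∃ y ∈ D, y ≠ 1 := by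
    by_contra hcon
    push Not at hcon
    apply hnil
    refine ⟨1, fun l hl hlen => ?_⟩
    obtain ⟨g, rfl⟩ := List.length_eq_one_iff.1 hlen
    rw [hcon g (hl g List.mem_cons_self)]
    simp
  classical
  let X : Set ℕ := {e | ∃ P Q, MaxNil D P ∧ MaxNil D Q ∧ P ≠ Q ∧ (∃ t ∈ P ∩ Q, t ≠ 1) ∧
    Module.finrank k (Sp (P ∩ Q)) = e}
  have hne : X.Nonempty := by
    obtain ⟨P, hP, hyP⟩ := exists_maxNil (D := D) (Set.singleton_subset_iff.2 hy₀) (hsingle y₀ hy₀)
    have hyP' : y₀ ∈ P := hyP rfl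
    obtain ⟨z, hz, hzP⟩ : ∃ z ∈ D, z ∉ P := by
      by_contra hcon
      push Not at hcon
      exact hnil (hP.2.1.mono hcon)
    have hsub : ({y₀, z} : Set (LinearMap.GeneralLinearGroup k M)) ⊆ D := by
      rintro x (rfl | hx)
      · exact hy₀
      · rw [Set.mem_singleton_iff] at hx
        rw [hx]
        exact hz
    obtain ⟨Q, hQ, hyQ⟩ := exists_maxNil hsub (hpair y₀ hy₀ z hz)
    refine ⟨_, P, Q, hP, hQ, ?_, ⟨y₀, ⟨hyP', hyQ (Or.inl rfl)⟩, hy₀1⟩, rfl⟩
    rintro rfl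
    exact hzP (hyQ (Or.inr rfl))
  have hbd : BddAbove X := ⟨Module.finrank k (M →ₗ[k] M), by
    rintro e ⟨P, Q, _, _, _, _, rfl⟩
    exact Submodule.finrank_le _⟩
  obtain ⟨P, Q, hP, hQ, hPQ, ⟨t, ht, ht1⟩, hbestval⟩ := Nat.sSup_mem hne hbd
  have hbest : ∀ P' Q', MaxNil D P' → MaxNil D Q' → P' ≠ Q' → (∃ t ∈ P' ∩ Q', t ≠ 1) →
      Module.finrank k (Sp (P' ∩ Q')) ≤ Module.finrank k (Sp (P ∩ Q)) := by
    intro P' Q' h1 h2 h3 h4
    rw [hbestval]
    exact le_csSup hbd ⟨P', Q', h1, h2, h3, h4, rfl⟩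
  set E := Subgroup.closure (P ∩ Q) with hE
  have hEnil : Nil ((E : Subgroup (LinearMap.GeneralLinearGroup k M)) : Set (LinearMap.GeneralLinearGroup k M)) :=
    Nil.closure (hP.2.1.mono Set.inter_subset_left)
  have htE : t ∈ E := Subgroup.subset_closure ht
  have hnetop := fixE_ne_top htE ht1
  have hnebot := fixE_ne_bot htE ht1 hEnil
  -- the members in the normalizer form a nil set
  let S : Set ↥(N₀ G E) := {x | (x : LinearMap.GeneralLinearGroup k M) ∈ D}
  have hvalS : Subtype.val '' S = D ∩ (N₀ G E : Set (LinearMap.GeneralLinearGroup k M)) := by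
    ext x
    constructor
    · rintro ⟨y, hy, rfl⟩
      exact ⟨hy, y.2⟩
    · rintro ⟨h1, h2⟩
      exact ⟨⟨x, h2⟩, h1, rfl⟩
  have hpairS : ∀ x ∈ S, ∀ y ∈ S, Nil (Subtype.val '' ({x, y} : Set ↥(N₀ G E))) := by
    intro x hx y hy
    have := hpair _ hx _ hy
    rwa [Set.image_pair]
  have h1 : Nil ((phiSub G E).toHomUnits '' S) := by
    have hlt : Module.finrank k ↥(fixE E) < d := by
      rw [← hd]
      exact Submodule.finrank_lt hnetop
    refine ih _ hlt ↥(fixE E) rfl (phiSub G E).toHomUnits.range _ ?_ ?_ ?_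
    · rintro _ ⟨x, _, rfl⟩
      exact ⟨x, rfl⟩
    · rintro _ ⟨x, hx, rfl⟩ _ ⟨h, rfl⟩
      refine ⟨h * x * h⁻¹, hinv _ hx _ h.2.1, ?_⟩
      simp
    · rintro _ ⟨x, hx, rfl⟩ _ ⟨y, hy, rfl⟩
      have := nil_image_sub (hpairS x hx y hy)
      rwa [Set.image_pair] at this
  have h2 : Nil ((phiQuot G E).toHomUnits '' S) := by
    have hlt : Module.finrank k (M ⧸ fixE E) < d := by
      have h3 := Submodule.finrank_quotient_add_finrank (fixE E)
      have h4 : 0 < Module.finrank k ↥(fixE E) := by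
        rw [Nat.pos_iff_ne_zero]
        intro h0
        exact hnebot (Submodule.finrank_eq_zero.1 h0)
      omega
    refine ih _ hlt (M ⧸ fixE E) rfl (phiQuot G E).toHomUnits.range _ ?_ ?_ ?_
    · rintro _ ⟨x, _, rfl⟩
      exact ⟨x, rfl⟩
    · rintro _ ⟨x, hx, rfl⟩ _ ⟨h, rfl⟩
      refine ⟨h * x * h⁻¹, hinv _ hx _ h.2.1, ?_⟩
      simp
    · rintro _ ⟨x, hx, rfl⟩ _ ⟨y, hy, rfl⟩
      have := nil_image_quot (hpairS x hx y hy)
      rwa [Set.image_pair] at this
  have h3 := nil_of_sub_quot h1 h2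
  rw [hvalS] at h3
  obtain ⟨T, hT, hTsub⟩ := exists_maxNil Set.inter_subset_left h3
  have e1 : P = T := best_pair_step hDG hinv hP hQ hPQ ht ht1 hbest hT hTsub
  have e2 : Q = T := by
    refine best_pair_step hDG hinv hQ hP hPQ.symm ⟨ht.2, ht.1⟩ ht1 ?_ hT ?_
    · intro P' Q' h4 h5 h6 h7
      rw [Set.inter_comm Q P]
      exact hbest P' Q' h4 h5 h6 h7
    · rw [Set.inter_comm Q P]
      exact hTsub
  exact hPQ (e1.trans e2.symm)

/-- The unipotent form. -/
theorem isUnipotentOn_iff (H : Subgroup (LinearMap.GeneralLinearGroup k M)) :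
    Cfsg.IsUnipotentOn H ↔ Nil (H : Set (LinearMap.GeneralLinearGroup k M)) := by
  have key : ∀ l : List (LinearMap.GeneralLinearGroup k M),
      (List.flatMap (fun a : LinearMap.GeneralLinearGroup k M => [(a : M →ₗ[k] M)]) l).map (fun g => g - 1) =
        l.map (fun g : LinearMap.GeneralLinearGroup k M => (g : M →ₗ[k] M) - 1) := by
    intro l
    induction l with
    | nil => rfl
    | cons a l ih => simp [ih]
  unfold Cfsg.IsUnipotentOn Nil
  simp only [List.bind_eq_flatMap, List.pure_def, SetLike.mem_coe, key]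

end Cfsg.Agent.Lib.LinBS
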